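import Cfsg.Agent.MaxSub.TensorPow.Rank
import Cfsg.Agent.MaxSub.TensorU.Forms

/-!
`U ⊗ W` with the product of the standard hermitian forms, written as `Fin m → κ → F`, and groups of
isometries containing the special unitary group of the first factor.
-/

set_option autoImplicit false
set_option linter.unusedSectionVars false

namespace Cfsg.Agent.MaxSub.TensorPowU

open Module Matrix Cfsg.Agent.Classical.U Cfsg.Agent.MaxSub.TensorPow
open Cfsg.Agent.MaxSub.ExtField (Mem inv_apply_self self_inv_apply)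

universe u

variable {F : Type u} [Field F] {m q : ℕ} {κ : Type} [Fintype κ]

/-- Entrywise `q`-th power. -/
def cv (q : ℕ) {ι : Type} (v : ι → F) : ι → F := fun i => v i ^ q

/-- The standard hermitian form. -/
def hm (q : ℕ) (X Y : κ → F) : F := ∑ i, X i * Y i ^ q

/-- The product form. -/
def hV (q : ℕ) (X Y : Fin m → κ → F) : F := ∑ i, hm q (X i) (Y i)

/-- The contraction with a vector of the first factor. -/
abbrev evh (q : ℕ) (v : Fin m → F) : (Fin m → κ → F) →ₗ[F] (κ → F) := ev (cv q v)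

lemma cv_dot (v u : Fin m → F) : cv q v ⬝ᵥ u = herm q u v := by
  simp [cv, dotProduct, herm_def, mul_comm]

lemma evh_ins (v u : Fin m → F) (w : κ → F) : evh q v (ins u w) = herm q u v • w := by
  rw [evh, ev_ins, cv_dot]

lemma hm_add_left (X X' Y : κ → F) : hm q (X + X') Y = hm q X Y + hm q X' Y := by
  simp [hm, add_mul, Finset.sum_add_distrib]

lemma hm_smul_left (c : F) (X Y : κ → F) : hm q (c • X) Y = c * hm q X Y := by
  simp [hm, Finset.mul_sum, mul_assoc]

lemma hm_smul_right (c : F) (X Y : κ → F) : hm q X (c • Y) = c ^ q * hm q X Y := by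
  simp [hm, Finset.mul_sum, mul_pow, mul_left_comm]

lemma hm_zero_left (Y : κ → F) : hm q 0 Y = 0 := by simp [hm]

variable (hF : SqField F q)
include hF

lemma hm_symm (X Y : κ → F) : hm q X Y ^ q = hm q Y X := by
  rw [hm, hF.sum_pow]
  exact Finset.sum_congr rfl fun i _ => by rw [mul_pow, hF.pow_pow, mul_comm]

lemma hm_zero_right (X : κ → F) : hm q X 0 = 0 := by simp [hm, hF.q_ne_zero]

lemma hm_add_right (X Y Y' : κ → F) : hm q X (Y + Y') = hm q X Y + hm q X Y' := by
  rw [← hm_symm hF, hm_add_left, hF.add_pow, hm_symm hF, hm_symm hF]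

lemma hm_sum_right {ι : Type} (s : Finset ι) (X : κ → F) (Y : ι → κ → F) :
    hm q X (∑ i ∈ s, Y i) = ∑ i ∈ s, hm q X (Y i) := by
  classical
  induction s using Finset.induction with
  | empty => simp [hm_zero_right hF]
  | @insert i s hi ih => rw [Finset.sum_insert hi, Finset.sum_insert hi, hm_add_right hF, ih]

lemma eq_zero_of_hm [DecidableEq κ] (X : κ → F) (h : ∀ Y, hm q Y X = 0) : X = 0 := by
  funext j
  have := h (Pi.single j 1)
  simp [hm, Pi.single_apply] at this
  exact this.1

lemma hm_ext [DecidableEq κ] {X X' : κ → F} (h : ∀ Y, hm q Y X = hm q Y X') : X = X' := by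
  refine sub_eq_zero.1 (eq_zero_of_hm hF _ fun Y => ?_)
  have := hm_add_right hF Y (X - X') X'
  rw [sub_add_cancel, h] at this
  linear_combination -this

lemma hm_ext_left [DecidableEq κ] {X X' : κ → F} (h : ∀ Y, hm q X Y = hm q X' Y) : X = X' :=
  hm_ext hF fun Y => by rw [← hm_symm hF X Y, ← hm_symm hF X' Y, h]

lemma hV_symm (X Y : Fin m → κ → F) : hV q X Y ^ q = hV q Y X := by
  rw [hV, hF.sum_pow]
  exact Finset.sum_congr rfl fun i _ => hm_symm hF _ _

omit hF in
lemma hV_add_left (X X' Y : Fin m → κ → F) : hV q (X + X') Y = hV q X Y + hV q X' Y := by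
  simp [hV, hm_add_left, Finset.sum_add_distrib]

omit hF in
lemma hV_smul_left (c : F) (X Y : Fin m → κ → F) : hV q (c • X) Y = c * hV q X Y := by
  simp [hV, hm_smul_left, Finset.mul_sum]

lemma hV_add_right (X Y Y' : Fin m → κ → F) : hV q X (Y + Y') = hV q X Y + hV q X Y' := by
  simp [hV, hm_add_right hF, Finset.sum_add_distrib]

omit hF in
lemma hV_smul_right (c : F) (X Y : Fin m → κ → F) : hV q X (c • Y) = c ^ q * hV q X Y := by
  simp [hV, hm_smul_right, Finset.mul_sum]

lemma hV_sub_right (X Y Y' : Fin m → κ → F) : hV q X (Y - Y') = hV q X Y - hV q X Y' := by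
  have := hV_add_right hF X (Y - Y') Y'
  rw [sub_add_cancel] at this
  linear_combination -this

omit hF in
lemma hV_zero_left (Y : Fin m → κ → F) : hV q 0 Y = 0 := by simp [hV, hm_zero_left]

lemma hV_zero_right (X : Fin m → κ → F) : hV q X 0 = 0 := by simp [hV, hm_zero_right hF]

lemma hV_ins_left (u : Fin m → F) (w : κ → F) (X : Fin m → κ → F) :
    hV q (ins u w) X = hm q w (evh q u X) := by
  rw [hV, evh, ev_apply, hm_sum_right hF]
  refine Finset.sum_congr rfl fun i _ => ?_
  rw [hm_smul_right, cv, hF.pow_pow, ins_apply, hm_smul_left]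

lemma hV_ins_right (X : Fin m → κ → F) (u : Fin m → F) (w : κ → F) :
    hV q X (ins u w) = hm q (evh q u X) w := by
  rw [← hV_symm hF, hV_ins_left hF, hm_symm hF]

lemma hV_ins_ins (u u' : Fin m → F) (w w' : κ → F) :
    hV q (ins u w) (ins u' w') = herm q u u' * hm q w w' := by
  rw [hV_ins_right hF, evh_ins, hm_smul_left]

lemma evh_eq_zero [DecidableEq κ] {v : Fin m → F} {X : Fin m → κ → F}
    (h : ∀ w, hV q (ins v w) X = 0) : evh q v X = 0 :=
  eq_zero_of_hm hF _ fun w => by rw [← hV_ins_left hF, h]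

lemma eq_zero_of_hV [DecidableEq κ] (X : Fin m → κ → F) (h : ∀ Y, hV q Y X = 0) : X = 0 := by
  funext i
  refine eq_zero_of_hm hF _ fun w => ?_
  have := h (Pi.single i w)
  rwa [hV, Finset.sum_eq_single i (fun j _ hj => by rw [Pi.single_eq_of_ne hj, hm_zero_left])
    (by simp), Pi.single_eq_same] at this

omit hF in
/-- `G` consists of isometries and contains the special unitary group of the first factor. -/
structure UGrp (q : ℕ) (G : Subgroup ((Fin m → κ → F) ≃ₗ[F] (Fin m → κ → F))) : Prop where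
  iso : ∀ g ∈ G, ∀ X Y, hV q (g X) (g Y) = hV q X Y
  su : ∀ g ∈ SUG m F q, ∃ f ∈ G, ∀ (u : Fin m → F) (w : κ → F), f (ins u w) = ins (g.1 u) w

omit hF in
/-- All parameters of the root elements of `G` are scalars. -/
def NoPar (q : ℕ) (G : Subgroup ((Fin m → κ → F) ≃ₗ[F] (Fin m → κ → F))) : Prop :=
  ∀ (v : Fin m → F) (Y : (κ → F) →ₗ[F] (κ → F)), v ≠ 0 → herm q v v = 0 →
    Mem G (root v (cv q v) Y) → ∃ c : F, Y = c • LinearMap.id

omit hF in
lemma ext_ins {M : Type*} [AddCommMonoid M] [Module F M]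
    {f g : (Fin m → κ → F) →ₗ[F] M} (h : ∀ (u : Fin m → F) (w : κ → F), f (ins u w) = g (ins u w)) (X : Fin m → κ → F) :
    f X = g X := by
  rw [eq_sum_ins (F := F) X, map_sum, map_sum]
  exact Finset.sum_congr rfl fun i _ => h _ _

variable {G : Subgroup ((Fin m → κ → F) ≃ₗ[F] (Fin m → κ → F))} (hG : UGrp q G)
include hG

/-- The Siegel elements of the first factor. -/
lemma mem_siegel {v x : Fin m → F} {a : F} (h : UniCond q v x a) :
    Mem G (ins x ∘ₗ evh q v + ins v ∘ₗ (a • evh q v - evh q x)) := by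
  obtain ⟨f, hf, hfx⟩ := hG.su _ (det_uni hF h)
  refine ⟨f, hf, fun X => ?_⟩
  show f.toLinearMap X = (LinearMap.id + (ins x ∘ₗ evh q v +
    ins v ∘ₗ (a • evh q v - evh q x)) : _ →ₗ[F] _) X
  refine ext_ins (fun u w => ?_) X
  simp only [LinearEquiv.coe_coe, hfx, uni_apply, LinearMap.add_apply, LinearMap.id_apply,
    LinearMap.comp_apply, LinearMap.sub_apply, LinearMap.smul_apply, evh_ins, map_smul]
  simp only [ins_add, ins_smul, ins_sub, sub_smul, map_sub, map_smul]
  module

/-- The transvections of the first factor. -/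
lemma mem_transv {v : Fin m → F} {c : F} (hv : herm q v v = 0) (hc : c ^ q = -c) :
    Mem G (root v (cv q v) (c • LinearMap.id)) :=
  (mem_siegel hF hG (x := 0) (a := c) ((TrvCond.uniCond hF) ⟨hv, hc⟩)).congr fun X => by
    have h0 : cv q (0 : Fin m → F) = 0 := funext fun i => by simp [cv, hF.q_ne_zero]
    simp [root_apply, -ev_apply, evh, h0, ins_zero, show ev (0 : Fin m → F) X = (0 : κ → F) by simp]

lemma mem_transv' [Nonempty κ] {v : Fin m → F} (hv : herm q v v = 0) :
    ∃ c : F, c ≠ 0 ∧ c ^ q = -c ∧ Mem G (root v (cv q v) (c • LinearMap.id)) := by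
  obtain ⟨c, hc0, hc⟩ := hF.exists_skew
  exact ⟨c, hc0, hc, mem_transv hF hG hv hc⟩

end Cfsg.Agent.MaxSub.TensorPowU
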