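import Cfsg.Agent.MaxSub.TensorPowU.Basic

/-!
Centres of transvections in `U ⊗ W`: two ways of making new centres `v ⊗ z` from old ones, and the
passage from all centres of that shape to all isotropic vectors.
-/

set_option autoImplicit false
set_option linter.unusedSectionVars false
set_option linter.style.haveILetI false
set_option maxHeartbeats 1000000

namespace Cfsg.Agent.MaxSub.TensorPowU

open Module Matrix Cfsg.Agent.Classical.U Cfsg.Agent.MaxSub.TensorPow
open Cfsg.Agent.MaxSub.TensorU (exists_partner exists_ne_pow herm_eq_zero_symm exists_second_pair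
  exists_isotropic)
open Cfsg.Agent.MaxSub.ExtField (Mem mem_zero inv_apply_self self_inv_apply)

universe u

variable {F : Type u} [Field F] {m q : ℕ} {κ : Type} [Fintype κ] [DecidableEq κ]

/-- `X ↦ h(X, M)`. -/
def hVd (q : ℕ) (M : Fin m → κ → F) : (Fin m → κ → F) →ₗ[F] F where
  toFun X := hV q X M
  map_add' X Y := hV_add_left X Y M
  map_smul' c X := hV_smul_left c X M

/-- `X ↦ h(X, N) M`. -/
def rkh (q : ℕ) (M N : Fin m → κ → F) : (Fin m → κ → F) →ₗ[F] (Fin m → κ → F) :=
  (hVd q N).smulRight M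

lemma rkh_apply (M N X : Fin m → κ → F) : rkh q M N X = hV q X N • M := rfl

/-- All transvections with centre `M` lie in `G`. -/
def IsCent (q : ℕ) (G : Subgroup ((Fin m → κ → F) ≃ₗ[F] (Fin m → κ → F)))
    (M : Fin m → κ → F) : Prop :=
  ∀ c : F, c ^ q = -c → Mem G (c • rkh q M M)

/-- The `z` all whose products with isotropic vectors are centres. -/
def ZSet (q : ℕ) (G : Subgroup ((Fin m → κ → F) ≃ₗ[F] (Fin m → κ → F))) (z : κ → F) : Prop :=
  ∀ v : Fin m → F, herm q v v = 0 → IsCent q G (ins v z)

lemma rkh_comp (M N M' N' X : Fin m → κ → F) :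
    rkh q M N (rkh q M' N' X) = (hV q X N' * hV q M' N) • M := by
  rw [rkh_apply, rkh_apply, hV_smul_left]

variable (hF : SqField F q)
include hF

lemma rkh_add_left (M M' N : Fin m → κ → F) : rkh q (M + M') N = rkh q M N + rkh q M' N :=
  LinearMap.ext fun X => by simp [rkh_apply]

lemma rkh_add_right (M N N' : Fin m → κ → F) : rkh q M (N + N') = rkh q M N + rkh q M N' :=
  LinearMap.ext fun X => by simp [rkh_apply, hV_add_right hF, add_smul]

lemma rkh_smul_left (c : F) (M N : Fin m → κ → F) : rkh q (c • M) N = c • rkh q M N :=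
  LinearMap.ext fun X => by simp [rkh_apply, smul_smul, mul_comm]

lemma rkh_smul_right (c : F) (M N : Fin m → κ → F) : rkh q M (c • N) = c ^ q • rkh q M N :=
  LinearMap.ext fun X => by simp [rkh_apply, hV_smul_right, smul_smul]

variable {G : Subgroup ((Fin m → κ → F) ≃ₗ[F] (Fin m → κ → F))}

lemma isCent_zero : IsCent q G (0 : Fin m → κ → F) := fun c _ =>
  mem_zero.congr fun X => by simp [rkh_apply]

lemma IsCent.smul {M : Fin m → κ → F} (h : IsCent q G M) (k : F) : IsCent q G (k • M) :=
  fun c hc => (h (c * k ^ (q + 1)) (by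
    rw [mul_pow, hc, pow_succ k, mul_pow, hF.pow_pow]; ring)).congr fun X => by
      simp [rkh_apply, hV_smul_right, smul_smul]
      congr 1
      ring

lemma IsCent.map (hG : UGrp q G) {M : Fin m → κ → F} (h : IsCent q G M)
    {g : (Fin m → κ → F) ≃ₗ[F] (Fin m → κ → F)} (hg : g ∈ G) : IsCent q G (g M) :=
  fun c hc => ((h c hc).conj hg).congr fun X => by
    simp only [LinearMap.comp_apply, LinearEquiv.coe_coe, LinearMap.smul_apply, rkh_apply,
      map_smul]
    rw [← hG.iso g hg (g⁻¹ X) M, self_inv_apply]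

/-- One centre moved by the transvection of another. -/
lemma IsCent.step (hG : UGrp q G) {M N : Fin m → κ → F} (hM : IsCent q G M) (hN : IsCent q G N)
    {c : F} (hc : c ^ q = -c) : IsCent q G (M + (c * hV q M N) • N) := by
  obtain ⟨g, hg, hgx⟩ := hN c hc
  have := hM.map hF hG hg
  rwa [hgx, LinearMap.smul_apply, rkh_apply, smul_smul] at this

/-- The commutator of two square-zero elements. -/
lemma mem_bracket {f g : (Fin m → κ → F) →ₗ[F] (Fin m → κ → F)} (hf : Mem G f) (hg : Mem G g)
    (hff : ∀ X, f (f X) = 0) (hgg : ∀ X, g (g X) = 0) (hfgf : ∀ X, f (g (f X)) = 0)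
    (hgfg : ∀ X, g (f (g X)) = 0) : Mem G (f ∘ₗ g - g ∘ₗ f) := by
  obtain ⟨a, ha, hax⟩ := hf
  obtain ⟨b, hb, hbx⟩ := hg
  refine ⟨a * b * (b * a)⁻¹, G.mul_mem (G.mul_mem ha hb) (G.inv_mem (G.mul_mem hb ha)), fun Z => ?_⟩
  obtain ⟨X, rfl⟩ := (b * a).surjective Z
  rw [LinearEquiv.mul_apply (a * b), inv_apply_self]
  simp only [LinearEquiv.mul_apply, hax, hbx, map_add, LinearMap.sub_apply,
    LinearMap.comp_apply, hff, hgg, hfgf, hgfg, map_zero, add_zero, sub_zero]
  abel

/-- Centres `v ⊗ z'` from centres with `z₁`, `z₂`, `z₃`. -/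
lemma ZSet.step (hG : UGrp q G) {z₁ z₂ z₃ : κ → F} (h₁ : ZSet q G z₁)
    (h₂ : ZSet q G z₂) (h₃ : ZSet q G z₃) {γ : F} (hγ : γ ^ q = γ)
    (hne : 1 + γ * hm q z₂ z₃ ^ (q + 1) ≠ 0) :
    ZSet q G (z₁ + (γ * hm q z₁ z₂ * hm q z₂ z₃) • z₃) := by
  intro v hv
  rcases eq_or_ne v 0 with rfl | hv0
  · rw [ins_zero]; exact isCent_zero hF
  obtain ⟨f, hf⟩ := exists_partner hF hv0 hv
  have hfv : herm q f v = 1 := (hf.symm hF).2.2
  obtain ⟨c, hc0, hc⟩ := hF.exists_skew
  set β := γ * hm q z₁ z₂ * hm q z₂ z₃
  have hd : (γ / c) ^ q = -(γ / c) := by rw [div_pow, hγ, hc, div_neg]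
  set D := 1 + γ * hm q z₂ z₃ ^ (q + 1)
  have hDq : D ^ q = D := by
    show (1 + γ * hm q z₂ z₃ ^ (q + 1)) ^ q = 1 + γ * hm q z₂ z₃ ^ (q + 1)
    rw [hF.add_pow, one_pow, mul_pow, hγ, pow_succ, mul_pow, hF.pow_pow]
    ring
  have he : (-(c / D)) ^ q = -(-(c / D)) := by rw [hF.neg_pow, div_pow, hc, hDq]; ring
  have s1 := (h₁ v hv).step hF hG (h₂ f hf.2.1) hc
  rw [hV_ins_ins hF, hf.2.2, one_mul] at s1
  have s2 := s1.step hF hG (h₃ v hv) hd
  have e2 : γ / c * hV q (ins v z₁ + (c * hm q z₁ z₂) • ins f z₂) (ins v z₃) = β := by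
    rw [hV_add_left, hV_smul_left, hV_ins_ins hF, hV_ins_ins hF, hv, hfv]
    field_simp
    simp [β]
    ring
  rw [e2] at s2
  have s3 := s2.step hF hG (h₂ f hf.2.1) he
  have e3 : -(c / D) * hV q (ins v z₁ + (c * hm q z₁ z₂) • ins f z₂ + β • ins v z₃) (ins f z₂) =
      -(c * hm q z₁ z₂) := by
    rw [hV_add_left, hV_add_left, hV_smul_left, hV_smul_left, hV_ins_ins hF, hV_ins_ins hF,
      hV_ins_ins hF, hf.2.1, hf.2.2, ← hm_symm hF z₂ z₃]
    have hb : β * hm q z₂ z₃ ^ q = γ * hm q z₁ z₂ * hm q z₂ z₃ ^ (q + 1) := by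
      rw [pow_succ]; simp only [β]; ring
    field_simp
    simp only [D]
    linear_combination -c * hb
  rw [e3] at s3
  convert s3 using 1
  rw [map_add, map_smul]
  module

/-- The parameters `c z z'* - c̄ z' z*` at `v`. -/
def Kel (q : ℕ) (G : Subgroup ((Fin m → κ → F) ≃ₗ[F] (Fin m → κ → F))) (v : Fin m → F)
    (z z' : κ → F) : Prop :=
  ∀ c : F, Mem G (c • rkh q (ins v z) (ins v z') - c ^ q • rkh q (ins v z') (ins v z))

variable {v : Fin m → F}

lemma Kel.symm {z z' : κ → F} (h : Kel q G v z z') : Kel q G v z' z := fun c => by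
  refine (h (-(c ^ q))).congr fun X => ?_
  simp only [hF.neg_pow, hF.pow_pow, LinearMap.sub_apply, LinearMap.smul_apply, neg_smul]
  abel

lemma Kel.add (hv : herm q v v = 0) {z z' z'' : κ → F} (h : Kel q G v z z')
    (h' : Kel q G v z z'') : Kel q G v z (z' + z'') := fun c => by
  refine ((h c).add (h' c) fun X => ?_).congr fun X => ?_
  · simp [rkh_apply, hV_ins_ins hF, hv, map_sub, map_smul]
  · simp only [map_add, rkh_add_left hF, rkh_add_right hF, LinearMap.add_apply,
      LinearMap.sub_apply, LinearMap.smul_apply, smul_add]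
    abel

lemma Kel.smul {z z' : κ → F} (h : Kel q G v z z') (k : F) : Kel q G v z (k • z') := fun c => by
  refine (h (c * k ^ q)).congr fun X => ?_
  simp only [map_smul, rkh_smul_left hF, rkh_smul_right hF, LinearMap.sub_apply,
    LinearMap.smul_apply, smul_smul, mul_pow, hF.pow_pow]

lemma Kel.zero {z : κ → F} : Kel q G v z 0 := fun c =>
  mem_zero.congr fun X => by simp [rkh_apply, hV_zero_right hF]

/-- The commutator of two pairs of centres. -/
theorem kel_of_pair (hm4 : 4 ≤ m) (hv0 : v ≠ 0) (hv : herm q v v = 0) {z₁ z₂ : κ → F}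
    (h₁ : ZSet q G z₁) (h₂ : ZSet q G z₂) (h12 : hm q z₂ z₁ ≠ 0) : Kel q G v z₁ z₂ := by
  obtain ⟨f, hf⟩ := exists_partner hF hv0 hv
  obtain ⟨y, y', hyy, hyv, -, hy'v, -⟩ := exists_second_pair hF hm4 hf
  obtain ⟨hy, hy', -⟩ := id hyy
  have hy'y : herm q y' y = 1 := (hyy.symm hF).2.2
  have hvy := herm_eq_zero_symm hF hyv
  have hvy' := herm_eq_zero_symm hF hy'v
  -- pairs of orthogonal centres
  have pair : ∀ (a b : Fin m → F), herm q a a = 0 → herm q b b = 0 → herm q a b = 0 →
      ∀ (z : κ → F), ZSet q G z → ∀ α : F,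
        Mem G (α • rkh q (ins a z) (ins b z) - α ^ q • rkh q (ins b z) (ins a z)) := by
    intro a b ha hb hab z hz α
    have hba := herm_eq_zero_symm hF hab
    obtain ⟨s, hs0, hs⟩ := hF.exists_skew
    set k := -(α ^ q) / s with hk
    have hkq : k ^ q = α / s := by rw [hk, div_pow, hF.neg_pow, hF.pow_pow, hs]; ring
    have hsum : herm q (a + k • b) (a + k • b) = 0 := by
      simp [herm_add_left, hF.herm_add_right, herm_smul_left, herm_smul_right, ha, hb, hab, hba]
    have hs' : ∀ x : F, (s * x ^ (q + 1)) ^ q = -(s * x ^ (q + 1)) := fun x => by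
      rw [mul_pow, hs, pow_succ, mul_pow, hF.pow_pow]; ring
    have hzero : ∀ (a' b' : Fin m → F), herm q a' b' = 0 → ∀ (d d' : F) X,
        (d • rkh q (ins b' z) (ins b' z)) ((d' • rkh q (ins a' z) (ins a' z)) X) = 0 :=
      fun a' b' h0 d d' X => by
        simp [rkh_apply, hV_ins_ins hF, h0]
    have m1 := (hz _ hsum s hs).add ((hz a ha s hs).neg (hzero a a ha s s)) fun X => by
      rw [LinearMap.neg_apply, map_neg, hzero a (a + k • b) (by
        simp [hF.herm_add_right, herm_smul_right, ha, hab]), neg_zero]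
    have m2 := m1.add ((hz b hb _ (hs' k)).neg (hzero b b hb _ _)) fun X => by
      rw [LinearMap.neg_apply, map_neg, LinearMap.add_apply, LinearMap.neg_apply,
        hzero b (a + k • b) (by simp [hF.herm_add_right, herm_smul_right, hb, hba]),
        hzero b a hba, neg_zero, add_zero, neg_zero]
    refine m2.congr fun X => ?_
    simp only [ins_add, ins_smul, rkh_add_left hF, rkh_add_right hF, rkh_smul_left hF,
      rkh_smul_right hF, LinearMap.add_apply, LinearMap.neg_apply, LinearMap.sub_apply,
      LinearMap.smul_apply, smul_add, smul_smul, hkq, pow_succ]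
    have e1 : s * (α / s) = α := by field_simp
    have e2 : s * k = -(α ^ q) := by rw [hk]; field_simp
    rw [e1, e2, show s * (k * (α / s)) = s * (α / s * k) by ring, neg_smul]
    abel
  intro c
  have mA := pair v y hv hy hvy z₁ h₁
  have mB := pair y' v hy' hv hy'v z₂ h₂
  refine (mem_bracket hF (mA (c / hm q z₂ z₁)) (mB 1) ?_ ?_ ?_ ?_).congr fun X => ?_
  all_goals try intro X
  all_goals
    simp [rkh_apply, hV_ins_ins hF, hv, hy, hy', hyv, hvy, hy'v,
      hvy', hy'y, hyy.2.2, map_sub, map_smul, smul_smul, ← hm_symm hF z₂ z₁, div_pow]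
  all_goals try field_simp

/-- From all centres `v ⊗ z` to all isotropic vectors. -/
theorem isCent_all (hm3 : 3 ≤ m) (hex : ¬ (q = 2 ∧ m = 3)) (hG : UGrp q G)
    (hall : ∀ z, ZSet q G z) {M : Fin m → κ → F} (hM : hV q M M = 0) : IsCent q G M := by
  classical
  haveI : Finite F := hF.1
  have hsumV : ∀ X Y : Fin m → κ → F,
      hV q X Y = ∑ z, herm q (fun i => X i z) (fun i => Y i z) := fun X Y => by
    simp only [hV, hm, herm_def]
    exact Finset.sum_comm
  -- the special unitary group of a column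
  have hrow : ∀ (z : κ) (g : UG m F q), g ∈ SUG m F q →
      ∃ k ∈ G, ∀ X : Fin m → κ → F, ∀ z', (fun i => k X i z') =
        if z' = z then g.1 (fun i => X i z) else fun i => X i z' := by
    intro z
    set e : κ → F := Pi.single z 1
    let H : Subgroup (UG m F q) :=
      { carrier := {g | ∃ k ∈ G, ∀ X : Fin m → κ → F,
          k X = X + ins (g.1 (fun i => X i z) - fun i => X i z) e}
        one_mem' := ⟨1, G.one_mem, fun X => by simp [ins_zero]⟩
        mul_mem' := by
          rintro g g' ⟨k, hk, hkx⟩ ⟨k', hk', hkx'⟩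
          refine ⟨k * k', G.mul_mem hk hk', fun X => ?_⟩
          have hcol : (fun i => (X + ins (g'.1 (fun i => X i z) - fun i => X i z) e) i z) =
              g'.1 (fun i => X i z) := by funext i; simp [e]
          rw [LinearEquiv.mul_apply, hkx', hkx, hcol, add_assoc, ← ins_add]
          simp
        inv_mem' := by
          rintro g ⟨k, hk, hkx⟩
          refine ⟨k⁻¹, G.inv_mem hk, fun X => k.injective ?_⟩
          have hcol : (fun i => (X + ins ((g⁻¹ : UG m F q).1 (fun i => X i z) - fun i => X i z) e) i z) =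
              (g⁻¹ : UG m F q).1 (fun i => X i z) := by funext i; simp [e]
          rw [self_inv_apply, hkx, hcol, add_assoc, ← ins_add]
          simp [ins_zero] }
    suffices TG m F q ≤ H by
      intro g hg
      rw [SUG_eq_TG hF (by omega) (fun h => hex ⟨h.2, h.1⟩)] at hg
      obtain ⟨k, hk, hkx⟩ := this hg
      refine ⟨k, hk, fun X z' => funext fun i => ?_⟩
      rw [hkx]
      rcases eq_or_ne z' z with rfl | hz
      · simp [e]
      · simp [e, hz]
    rw [TG, Subgroup.closure_le]
    rintro g' ⟨v, c, hvc, hg'⟩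
    obtain ⟨k, hk, hkx⟩ := hall e v hvc.1 c hvc.2
    refine ⟨k, hk, fun X => ?_⟩
    rw [hkx, hg', add_sub_cancel_left, LinearMap.smul_apply, rkh_apply, ins_smul, smul_smul]
    congr 2
    rw [hsumV, Finset.sum_eq_single z (fun z' _ hz => by simp [e, hz, herm_def, hF.q_ne_zero]) (by simp)]
    simp [e]
  -- centres depend only on the norms and the supports of the columns
  have hcols : ∀ {M M' : Fin m → κ → F}, IsCent q G M →
      (∀ z, herm q (fun i => M i z) (fun i => M i z) = herm q (fun i => M' i z) (fun i => M' i z) ∧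
        ((fun i => M i z) = 0 ↔ (fun i => M' i z) = 0)) → IsCent q G M' := by
    intro M M' h hh
    suffices ∀ s : Finset κ, IsCent q G (fun i z => if z ∈ s then M' i z else M i z) by
      simpa using this Finset.univ
    intro s
    induction s using Finset.induction with
    | empty => simpa using h
    | @insert z s hz ih =>
      obtain ⟨hn, hz0⟩ := hh z
      obtain ⟨g, hg, hgz⟩ : ∃ g ∈ SUG m F q, g.1 (fun i => M i z) = fun i => M' i z := by
        by_cases h0 : (fun i => M i z) = 0
        · exact ⟨1, one_mem _, by rw [h0, hz0.1 h0, map_zero]⟩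
        by_cases hμ : herm q (fun i => M i z) (fun i => M i z) = 0
        · obtain ⟨g, hg, hgi⟩ := TG_transitive_vectors hF hm3
            (hasUni hF hm3 (fun h => hex ⟨h.2, h.1⟩)) h0 hμ (fun h => h0 (hz0.2 h)) (hn ▸ hμ)
          exact ⟨g, TG_le_SUG hF hg, hgi⟩
        · exact TensorU.SUG_transitive_norm hF (by omega) hn hμ
      obtain ⟨k, hk, hkx⟩ := hrow z g hg
      convert ih.map hF hG hk using 1
      funext i z'
      have h1 := congrFun (hkx (fun i z => if z ∈ s then M' i z else M i z) z') i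
      beta_reduce at h1
      rw [h1]
      rcases eq_or_ne z' z with rfl | hz'
      · simp [hz, hgz]
      · simp [hz']
  suffices ∀ n, ∀ M : Fin m → κ → F, hV q M M = 0 →
      ({z | herm q (fun i => M i z) (fun i => M i z) ≠ 0} : Finset κ).card ≤ n → IsCent q G M from
    this _ M hM le_rfl
  intro n
  obtain ⟨e, he0, he⟩ := exists_isotropic hF (n := m) (by omega)
  induction n with
  | zero =>
    intro M _ hcard
    have hiso : ∀ z, herm q (fun i => M i z) (fun i => M i z) = 0 := fun z => by
      by_contra hne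
      have h0 : z ∈ ({z | herm q (fun i => M i z) (fun i => M i z) ≠ 0} : Finset κ) := by simpa using hne
      rw [Finset.card_eq_zero.1 (Nat.le_zero.1 hcard)] at h0
      exact Finset.notMem_empty z h0
    refine hcols (hall (fun z => if (fun i => M i z) = 0 then (0 : F) else 1) e he) fun z => ?_
    rw [hiso]
    by_cases h0 : (fun i => M i z) = 0
    · have hh : (fun i => ins e (fun z => if (fun i => M i z) = 0 then (0 : F) else 1) i z) = 0 := by
        funext i; simp [h0]
      rw [hh]; simp [h0]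
    · have hh : (fun i => ins e (fun z => if (fun i => M i z) = 0 then (0 : F) else 1) i z) = e := by
        funext i; simp [h0]
      rw [hh]; simp [h0, he, he0]
  | succ n ih =>
    intro M hM hcard
    by_cases hle : ({z | herm q (fun i => M i z) (fun i => M i z) ≠ 0} : Finset κ).card ≤ n
    · exact ih M hM hle
    obtain ⟨a, ha⟩ := Finset.card_pos.1 (by omega : 0 < ({z | herm q (fun i => M i z) (fun i => M i z) ≠ 0} :
      Finset κ).card)
    rw [Finset.mem_filter] at ha
    obtain ⟨b, hba, hb⟩ : ∃ b, b ≠ a ∧ herm q (fun i => M i b) (fun i => M i b) ≠ 0 := by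
      by_contra hcon
      push Not at hcon
      exact ha.2 (by
        rw [← hM, hsumV, Finset.sum_eq_single a (fun l _ hl => hcon l hl) (by simp)])
    obtain ⟨f, -, hf, hef⟩ := exists_partner hF he0 he
    have hfe : herm q f e = 1 := by rw [← hF.herm_symm, hef, one_pow]
    have hne : ∀ t : F, f + t • e ≠ 0 := fun t h0 => by
      have := congrArg (fun w => herm q w e) h0
      simp [herm_add_left, herm_smul_left, hfe, he] at this
    have hstd : ∀ μ : F, μ ^ q = μ → ∃ t : F, herm q (f + t • e) (f + t • e) = μ := fun μ hμ => by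
      obtain ⟨t, ht⟩ := hF.exists_trace hμ
      refine ⟨t, ?_⟩
      simp only [herm_add_left, hF.herm_add_right, herm_smul_left, herm_smul_right, he, hf, hef, hfe]
      linear_combination ht
    obtain ⟨ta, hta⟩ := hstd _ (hF.herm_symm (fun i => M i a) (fun i => M i a))
    obtain ⟨tb, htb⟩ := hstd _ (hF.herm_symm (fun i => M i b) (fun i => M i b))
    set M₁ : Fin m → κ → F := fun i z =>
      if z = a then (f + ta • e) i else if z = b then (f + tb • e) i else M i z with hM₁
    have hMa : (fun i => M₁ i a) = f + ta • e := by funext i; simp [hM₁]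
    have hMb : (fun i => M₁ i b) = f + tb • e := by funext i; simp [hM₁, hba]
    have hMo : ∀ z, z ≠ a → z ≠ b → (fun i => M₁ i z) = fun i => M i z := fun z h1 h2 => by
      funext i; simp [hM₁, h1, h2]
    have hM₁col : ∀ z, herm q (fun i => M₁ i z) (fun i => M₁ i z) =
        herm q (fun i => M i z) (fun i => M i z) ∧
        ((fun i => M₁ i z) = 0 ↔ (fun i => M i z) = 0) := by
      intro z
      rcases eq_or_ne z a with rfl | h1
      · rw [hMa]
        exact ⟨hta, iff_of_false (hne ta) fun h0 => ha.2 (by rw [h0, herm_zero_left])⟩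
      rcases eq_or_ne z b with rfl | h2
      · rw [hMb]
        exact ⟨htb, iff_of_false (hne tb) fun h0 => hb (by rw [h0, herm_zero_left])⟩
      rw [hMo z h1 h2]
      exact ⟨rfl, Iff.rfl⟩
    obtain ⟨c, hc0, hc⟩ := hF.exists_skew
    set α := -ta / c with hα
    set x : κ → F := Pi.single a α + Pi.single b 1 with hx
    obtain ⟨k, hk, hkx⟩ := hall x e he c hc
    have hval : hV q M₁ (ins e x) = α ^ q + 1 := by
      rw [hV_ins_right hF, hm, Finset.sum_eq_add a b (Ne.symm hba)
        (fun z _ hz => by simp [hx, hz.1, hz.2, hF.q_ne_zero]) (by simp) (by simp)]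
      have e1 : ∀ z, evh q e M₁ z = herm q (fun i => M₁ i z) e := fun z => by
        simp [herm_def, cv, mul_comm]
      rw [e1, e1, hMa, hMb, herm_add_left, herm_add_left, herm_smul_left, herm_smul_left, hfe, he]
      simp [hx, hba, Ne.symm hba]
    have hcolk : ∀ z, (fun i => k M₁ i z) =
        (fun i => M₁ i z) + (c * (α ^ q + 1) * x z) • e := fun z => by
      funext i
      rw [hkx, LinearMap.smul_apply, rkh_apply, hval]
      simp
      ring
    have hnew : IsCent q G (k M₁) := by
      refine ih _ ?_ ?_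
      · rw [hG.iso k hk, hsumV, ← hM, hsumV]
        exact Finset.sum_congr rfl fun z _ => (hM₁col z).1
      refine Nat.le_of_lt_succ (lt_of_lt_of_le (Finset.card_lt_card ?_) hcard)
      refine Finset.ssubset_iff_of_subset (fun z hz => ?_) |>.2 ⟨a, by simpa using ha.2, ?_⟩
      · rw [Finset.mem_filter] at hz ⊢
        refine ⟨Finset.mem_univ _, ?_⟩
        rcases eq_or_ne z a with rfl | h1
        · exact ha.2
        rcases eq_or_ne z b with rfl | h2
        · exact hb
        rw [hcolk, show x z = 0 by simp [hx, h1, h2], mul_zero, zero_smul, add_zero,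
          (hM₁col z).1] at hz
        exact hz.2
      · rw [Finset.mem_filter, not_and, not_not]
        intro _
        rw [hcolk, show x a = α by simp [hx, Ne.symm hba], hMa, add_assoc, ← add_smul]
        have hcα : c * α = -ta := mul_div_cancel₀ _ hc0
        have hcα' : (c * α) ^ q = -(ta ^ q) := by rw [hcα, hF.neg_pow]
        rw [mul_pow, hc] at hcα'
        simp only [herm_add_left, hF.herm_add_right, herm_smul_left, herm_smul_right, he, hf, hef,
          hfe, hF.add_pow, mul_pow, hF.pow_pow, one_pow, hc]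
        linear_combination hcα + hcα'
    have hback := hnew.map hF hG (G.inv_mem hk)
    rw [inv_apply_self] at hback
    exact hcols hback hM₁col

end Cfsg.Agent.MaxSub.TensorPowU
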