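import Cfsg.Agent.MaxSub.TensorPowU.Stab

/-!
An element mapping one isotropic line `v ⊗ W` onto another is a tensor product.
-/

set_option autoImplicit false
set_option linter.unusedSectionVars false
set_option maxHeartbeats 1000000

namespace Cfsg.Agent.MaxSub.TensorPowU

open Module Matrix Cfsg.Agent.Classical.U Cfsg.Agent.MaxSub.TensorPow
open Cfsg.Agent.MaxSub.TensorU (exists_partner herm_eq_zero_symm exists_second_pair dualF
  dualF_apply)
open Cfsg.Agent.MaxSub.ExtField (Mem inv_apply_self self_inv_apply)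

universe u

variable {F : Type u} [Field F] {m q : ℕ} {κ : Type} [Fintype κ] [DecidableEq κ] [Nonempty κ]
variable (hF : SqField F q)
include hF
variable {G G' : Subgroup ((Fin m → κ → F) ≃ₗ[F] (Fin m → κ → F))}
  {h : (Fin m → κ → F) ≃ₗ[F] (Fin m → κ → F)} {v v' : Fin m → F}
  {k : (κ → F) ≃ₗ[F] (κ → F)} {lam : F}

omit hF in
lemma hm_single (i : κ) (hq : q ≠ 0) :
    hm q (Pi.single i (1 : F) : κ → F) (Pi.single i 1) = 1 := by
  rw [hm, Finset.sum_eq_single i (fun j _ hj => by simp [Pi.single_eq_of_ne hj]) (by simp)]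
  simp

omit hF in
lemma exists_eq_of_hm_smul {a b : F} (i : κ) (hq : q ≠ 0)
    (h : ∀ x y : κ → F, a * hm q x y = b * hm q x y) : a = b := by
  simpa [hm_single i hq] using h (Pi.single i (1 : F)) (Pi.single i 1)

lemma LD.hm_k (D : LD q h v v' k lam) (a b : κ → F) :
    hm q (k a) (k b) = lam * hm q a b := by
  rw [D.hm_adj hF, LinearEquiv.symm_apply_apply, hm_smul_right, D.fixed]

lemma exists_linearMap (hv0 : v ≠ 0) (hv : herm q v v = 0) :
    finrank F (LinearMap.ker (dualF (F := F) q v)) + 1 = m := by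
  obtain ⟨y, -, hy, -⟩ := exists_dual hF hv0 hv
  have hs : LinearMap.range (dualF (F := F) q v) = ⊤ := by
    rw [eq_top_iff]
    intro c _
    exact ⟨c • y, by rw [dualF_apply, herm_smul_left, hy, mul_one]⟩
  have := LinearMap.finrank_range_add_finrank_ker (dualF (F := F) q v)
  rw [hs, finrank_top, finrank_self, finrank_fin_fun] at this
  omega

variable (D : LD q h v v' k lam) (hG : UGrp q G) (hG' : UGrp q G') (hP : NoPar q G')
  (hh : ∀ g ∈ G, h * g * h⁻¹ ∈ G')
include D hG hG' hP hh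

/-- A linear map describing `h` on the orthogonal space of `v`. -/
lemma LD.exists_B :
    ∃ T : (Fin m → F) →ₗ[F] (Fin m → F), (∀ x, herm q x v = 0 →
      ∀ w, h (ins x w) = ins (T x) (k w)) ∧
      (∀ x, herm q x v = 0 → herm q (T x) v' = 0) ∧
      (∀ s, herm q s v' = 0 → ∃ x, herm q x v = 0 ∧ T x = s) ∧ T v = v' := by
  obtain ⟨i⟩ := (inferInstance : Nonempty κ)
  set w0 := k.symm (Pi.single i (1 : F))
  let T : (Fin m → F) →ₗ[F] (Fin m → F) :=
    { toFun := fun x l => h (ins x w0) l i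
      map_add' := fun x y => by funext l; simp [ins_add]
      map_smul' := fun c x => by funext l; simp [ins_smul] }
  have hT : ∀ (x c : Fin m → F), (∀ w, h (ins x w) = ins c (k w)) → T x = c := fun x c hc => by
    funext l
    show h (ins x w0) l i = c l
    rw [hc, LinearEquiv.apply_symm_apply]
    simp
  have h1 : ∀ x, herm q x v = 0 → (∀ w, h (ins x w) = ins (T x) (k w)) ∧
      herm q (T x) v' = 0 := fun x hx => by
    obtain ⟨c, hc, hcx⟩ := D.pure hF hG hG' hP hh hx
    rw [hT x c hcx]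
    exact ⟨hcx, hc⟩
  refine ⟨T, fun x hx => (h1 x hx).1, fun x hx => (h1 x hx).2, fun s hs => ?_, hT v v' D.hk⟩
  have hle : (LinearMap.ker (dualF (F := F) q v)).map T ≤ LinearMap.ker (dualF (F := F) q v') := by
    rintro _ ⟨x, hx, rfl⟩
    exact (h1 x hx).2
  have hinj : Function.Injective (T.domRestrict (LinearMap.ker (dualF (F := F) q v))) := by
    rw [← LinearMap.ker_eq_bot, LinearMap.ker_eq_bot']
    rintro ⟨x, hx⟩ hx0
    have h2 := (h1 x hx).1 w0
    rw [show T x = 0 from hx0, ins_zero] at h2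
    have h3 : ins x w0 = 0 := h.injective (h2.trans (map_zero h).symm)
    refine Subtype.ext (funext fun l => ?_)
    have h4 := congrFun (congrFun h3 l) i
    have h5 : w0 ≠ 0 := fun h0 => by
      have := congrArg k h0
      rw [LinearEquiv.apply_symm_apply, map_zero] at this
      simpa using congrFun this i
    by_contra hl
    exact h5 ((smul_eq_zero.1 (congrFun h3 l)).resolve_left hl)
  have heq : (LinearMap.ker (dualF (F := F) q v)).map T = LinearMap.ker (dualF (F := F) q v') := by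
    refine Submodule.eq_of_le_of_finrank_le hle ?_
    rw [← LinearMap.range_domRestrict, LinearMap.finrank_range_of_inj hinj]
    have e1 := exists_linearMap hF (m := m) D.hv0 D.hv
    have e2 := exists_linearMap hF (m := m) D.hv'0 D.hv'
    omega
  obtain ⟨x, hx, hxs⟩ := heq.ge (show s ∈ LinearMap.ker (dualF (F := F) q v') from hs)
  exact ⟨x, hx, hxs⟩

/-- Every image of a pure tensor is pure modulo the line of `v'`. -/
theorem LD.form (u : Fin m → F) :
    ∃ (c : Fin m → F) (θ : (κ → F) →ₗ[F] (κ → F)),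
      ∀ w, h (ins u w) = ins c (k w) + ins v' (θ w) := by
  obtain ⟨T, hT, -, hsur, -⟩ := D.exists_B hF hG hG' hP hh
  refine decomp hF D.hv'0 D.hv' (h.toLinearMap ∘ₗ ins u) fun s hs => ?_
  obtain ⟨x, hx, rfl⟩ := hsur s hs
  refine ⟨lam⁻¹ * herm q u x, fun w => hm_ext_left hF fun a => ?_⟩
  obtain ⟨a, rfl⟩ := k.surjective a
  rw [LinearMap.comp_apply, LinearEquiv.coe_coe, ← hV_ins_right hF, ← hT x hx, D.iso,
    hV_ins_ins hF, hm_smul_left, D.hm_k hF]
  field_simp [D.ne]

omit G hG hh in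
/-- A second line with the same map of `W`. -/
lemma LD.second {s s' : Fin m → F} (hs0 : s ≠ 0) (hs : herm q s s = 0)
    (hline : ∀ w, h (ins s w) = ins s' (k w)) : LD q h s s' k lam := by
  obtain ⟨i⟩ := (inferInstance : Nonempty κ)
  refine ⟨hs0, hs, fun h0 => hs0 ?_, ?_, hline, fun X => ?_, D.fixed, D.ne, D.iso⟩
  · have h1 := hline (Pi.single i 1)
    rw [h0, ins_zero] at h1
    funext l
    have h2 := congrFun (congrFun (h.injective (h1.trans (map_zero h).symm)) l) i
    simpa using h2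
  · have h1 := D.iso (ins s (Pi.single i 1)) (ins s (Pi.single i 1))
    rw [hline, hV_ins_ins hF, hV_ins_ins hF, hs, zero_mul, D.hm_k hF,
      hm_single i hF.q_ne_zero, mul_one] at h1
    exact (mul_eq_zero.1 h1).resolve_right D.ne
  · refine hm_ext hF fun a => ?_
    rw [← D.hm_adj hF, ← hV_ins_left hF, ← hV_ins_left hF, ← D.iso, hline,
      LinearEquiv.apply_symm_apply]

/-- With four or more dimensions the second orthogonal line finishes the proof. -/
lemma LD.pure_partner_four (hm4 : 4 ≤ m) {f : Fin m → F} (hf : IsUPair q v f) :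
    ∃ c : Fin m → F, ∀ w, h (ins f w) = ins c (k w) := by
  obtain ⟨c, θ, hc⟩ := D.form hF hG hG' hP hh f
  obtain ⟨s, s', hss, hsv, hsf, -, -⟩ := exists_second_pair hF hm4 hf
  obtain ⟨T, hT, -, -, hTv⟩ := D.exists_B hF hG hG' hP hh
  have hv' := D.hv'0
  have D2 := D.second hF hG' hP (s' := T s) hss.ne_zero hss.1 (hT s hsv)
  obtain ⟨c', θ', hc'⟩ := D2.form hF hG hG' hP hh f
  obtain ⟨i⟩ := (inferInstance : Nonempty κ)
  obtain ⟨φ, hφv, hφs⟩ := exists_perp (S := F ∙ T s) (x := v') fun hmem => by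
    obtain ⟨a, ha⟩ := Submodule.mem_span_singleton.1 hmem
    have hsv' : herm q (a • s - v) v = 0 := by
      rw [herm_sub_left, herm_smul_left, hsv, D.hv, mul_zero, sub_zero]
    have h1 := hT _ hsv' (Pi.single i 1)
    rw [map_sub, map_smul, hTv, ha, sub_self, ins_zero] at h1
    have h2 : ins (a • s - v) (Pi.single i (1 : F)) = 0 := h.injective (h1.trans (map_zero h).symm)
    have h3 : a • s - v = 0 := funext fun l => by simpa using congrFun (congrFun h2 l) i
    have h4 : herm q (a • s - v) f = 0 := by rw [h3, herm_zero_left]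
    rw [herm_sub_left, herm_smul_left, hsf, mul_zero, zero_sub, neg_eq_zero, hf.2.2] at h4
    exact one_ne_zero h4
  refine ⟨c + (φ ⬝ᵥ c' - φ ⬝ᵥ c) • v', fun w => ?_⟩
  have h1 := congrArg (ev φ) ((hc' w).symm.trans (hc w))
  simp only [map_add, ev_ins, hφv, hφs _ (Submodule.mem_span_singleton_self _), zero_smul,
    add_zero, one_smul] at h1
  rw [hc, ins_add, ins_smul, ← map_smul, sub_smul, h1, add_sub_cancel_left]

/-- With `q ≥ 3` a scaling of `v` finishes the proof. -/
lemma LD.pure_partner_big (hm3 : 3 ≤ m) (hq : 3 ≤ q) {f : Fin m → F} (hf : IsUPair q v f) :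
    ∃ c : Fin m → F, ∀ w, h (ins f w) = ins c (k w) := by
  haveI : Finite F := hF.1
  obtain ⟨i⟩ := (inferInstance : Nonempty κ)
  obtain ⟨p, θ, hp⟩ := D.form hF hG hG' hP hh f
  obtain ⟨T, hT, hTv', -, hTv⟩ := D.exists_B hF hG hG' hP hh
  have hfv : herm q f v = 1 := (hf.symm hF).2.2
  have hpv : herm q p v' = lam⁻¹ := by
    have h1 := D.apply_fwd hF (ins f (Pi.single i 1))
    rw [hp, map_add, evh_ins, evh_ins, evh_ins, D.hv', zero_smul, add_zero, hfv, one_smul] at h1
    exact smul_left_injective F (show k (Pi.single i (1 : F)) ≠ 0 from fun h0 => by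
      have h0' := congrFun (k.injective (h0.trans (map_zero k).symm)) i
      simp at h0') h1
  obtain ⟨α, hα⟩ := hF.exists_trace (c := -(lam * herm q p p))
    (by rw [hF.neg_pow, mul_pow, D.fixed, hF.herm_symm])
  set p' := p + α • v' with hp'
  set Z := θ - α • k.toLinearMap with hZ
  have hp'p' : herm q p' p' = 0 := by
    have h1 : herm q v' p = lam⁻¹ := by rw [← hF.herm_symm, hpv, inv_pow, D.fixed]
    rw [hp', herm_add_left, hF.herm_add_right, hF.herm_add_right, herm_smul_left, herm_smul_left,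
      herm_smul_right, herm_smul_right, D.hv', hpv, h1]
    have hl : lam * lam⁻¹ = 1 := mul_inv_cancel₀ D.ne
    linear_combination lam⁻¹ * hα - herm q p p * hl
  have hp'v : herm q p' v' = lam⁻¹ := by
    rw [hp', herm_add_left, herm_smul_left, D.hv', mul_zero, add_zero, hpv]
  -- the map `B`
  let B : (Fin m → F) →ₗ[F] (Fin m → F) :=
    T ∘ₗ (LinearMap.id - (dualF q v).smulRight f) + (dualF q v).smulRight p'
  have hBval : ∀ u, B u = T (u - herm q u v • f) + herm q u v • p' := fun u => rfl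
  have hproj : ∀ u, herm q (u - herm q u v • f) v = 0 := fun u => by
    rw [herm_sub_left, herm_smul_left, hfv, mul_one, sub_self]
  have hform : ∀ u w, h (ins u w) = ins (B u) (k w) + herm q u v • ins v' (Z w) := fun u w => by
    conv_lhs => rw [← sub_add_cancel u (herm q u v • f)]
    rw [ins_add, map_add, hT _ (hproj u), ins_smul, map_smul, hp, hBval, ins_add, ins_smul, hp',
      ins_add, ins_smul, hZ]
    simp only [LinearMap.sub_apply, LinearMap.smul_apply, LinearEquiv.coe_coe, map_sub, map_smul]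
    module
  -- `B` is a similitude
  have hxx : ∀ x x', herm q x v = 0 → herm q x' v = 0 →
      herm q (T x) (T x') = lam⁻¹ * herm q x x' := fun x x' hx hx' => by
    refine exists_eq_of_hm_smul i hF.q_ne_zero fun a b => ?_
    have h1 := D.iso (ins x a) (ins x' b)
    rw [hT x hx, hT x' hx', hV_ins_ins hF, hV_ins_ins hF, D.hm_k hF] at h1
    have hl : lam * lam⁻¹ = 1 := mul_inv_cancel₀ D.ne
    linear_combination lam⁻¹ * h1 - herm q (T x) (T x') * hm q a b * hl
  have hfx : ∀ x, herm q x v = 0 → herm q p' (T x) = lam⁻¹ * herm q f x := fun x hx => by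
    refine exists_eq_of_hm_smul i hF.q_ne_zero fun a b => ?_
    have h1 := D.iso (ins f a) (ins x b)
    have hvT : herm q v' (T x) = 0 := herm_eq_zero_symm hF (hTv' x hx)
    rw [hp, hT x hx, hV_add_left, hV_ins_ins hF, hV_ins_ins hF, hV_ins_ins hF, D.hm_k hF, hvT,
      zero_mul, add_zero] at h1
    rw [hp', herm_add_left, herm_smul_left, hvT, mul_zero, add_zero]
    have hl : lam * lam⁻¹ = 1 := mul_inv_cancel₀ D.ne
    linear_combination lam⁻¹ * h1 - herm q p (T x) * hm q a b * hl
  have hsim : ∀ u u', herm q (B u) (B u') = lam⁻¹ * herm q u u' := fun u u' => by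
    have hTp : herm q (T (u - herm q u v • f)) p' =
        lam⁻¹ * herm q (u - herm q u v • f) f := by
      rw [← hF.herm_symm, hfx _ (hproj u), mul_pow, inv_pow, D.fixed, hF.herm_symm]
    rw [hBval, hBval, herm_add_left, hF.herm_add_right, hF.herm_add_right, herm_smul_right,
      herm_smul_left, herm_smul_left, herm_smul_right, hxx _ _ (hproj u) (hproj u'),
      hfx _ (hproj u'), hTp, hp'p']
    simp only [herm_sub_left, hF.herm_sub_right, herm_smul_left, herm_smul_right, hf.2.1]
    ring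
  have hBinj : Function.Injective B := fun u u' huu => sub_eq_zero.1 <| hF.eq_zero_of_herm _
    fun z => by
      have := hsim (u - u') z
      rw [map_sub, huu, sub_self, herm_zero_left, eq_comm, mul_eq_zero] at this
      exact this.resolve_left (inv_ne_zero D.ne)
  set Be := LinearEquiv.ofInjectiveEndo B hBinj with hBe
  -- the scalings
  obtain ⟨l, hl0, hl⟩ : ∃ l : F, l ≠ 0 ∧ l ^ (q + 1) ≠ 1 := by
    by_contra hcon
    push Not at hcon
    haveI := Fintype.ofFinite F
    have h1 : Nat.card Fˣ ≤ q + 1 := by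
      rw [← hF.card_norm_one]
      exact Nat.card_le_card_of_injective
        (fun x : Fˣ => (⟨(x : F), hcon _ x.ne_zero⟩ : {x : F // x ^ (q + 1) = 1}))
        fun x y hxy => Units.ext (congrArg Subtype.val hxy)
    rw [hF.card_units] at h1
    have : 2 * (q + 1) ≤ (q - 1) * (q + 1) := Nat.mul_le_mul_right _ (by omega)
    omega
  obtain ⟨g, hg, hgv⟩ := TG_transitive_vectors hF (by omega)
    (hasUni hF hm3 (by omega)) D.hv0 D.hv (v := l • v)
    (smul_ne_zero hl0 D.hv0) (by rw [herm_smul_left, herm_smul_right, D.hv, mul_zero, mul_zero])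
  set σ : UG m F q := ⟨Be * g.1 * Be⁻¹, fun x y => by
    obtain ⟨x, rfl⟩ := Be.surjective x
    obtain ⟨y, rfl⟩ := Be.surjective y
    simp only [LinearEquiv.mul_apply, inv_apply_self]
    show herm q (B (g.1 x)) (B (g.1 y)) = herm q (B x) (B y)
    rw [hsim, hsim, UG_app]⟩
  have hσ : σ ∈ SUG m F q := by
    rw [mem_SUG]
    show LinearEquiv.det (Be * g.1 * Be⁻¹) = 1
    rw [map_mul, map_mul, map_inv, mem_SUG.1 (TG_le_SUG hF hg), mul_one, mul_inv_cancel]
  obtain ⟨fg, hfg, hfgx⟩ := hG.su g (TG_le_SUG hF hg)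
  obtain ⟨fs, hfs, hfsx⟩ := hG'.su σ hσ
  have hσB : ∀ u, σ.1 (B u) = B (g.1 u) := fun u => by
    show (Be * g.1 * Be⁻¹) (Be u) = Be (g.1 u)
    rw [LinearEquiv.mul_apply, LinearEquiv.mul_apply, inv_apply_self]
  have hBv : B v = v' := by
    rw [hBval, D.hv, zero_smul, sub_zero, zero_smul, add_zero, hTv]
  have hgu : ∀ u, herm q (g.1 u) v = (l ^ q)⁻¹ * herm q u v := fun u => by
    rw [eq_inv_mul_iff_mul_eq₀ (pow_ne_zero q hl0), ← herm_smul_right, ← hgv, UG_app]
  set c0 := lam * (1 - l * l ^ q) with hc0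
  have hmem : Mem G' (root v' (cv q v') (c0 • (Z ∘ₗ k.symm.toLinearMap))) := by
    refine ⟨h * fg * h⁻¹ * fs⁻¹, G'.mul_mem (hh fg hfg) (G'.inv_mem hfs), fun X => ?_⟩
    obtain ⟨X, rfl⟩ := fs.surjective X
    obtain ⟨X, rfl⟩ := h.surjective X
    rw [LinearEquiv.mul_apply, inv_apply_self, LinearEquiv.mul_apply, LinearEquiv.mul_apply,
      inv_apply_self]
    show (h.toLinearMap ∘ₗ fg.toLinearMap) X = ((LinearMap.id +
      root v' (cv q v') (c0 • (Z ∘ₗ k.symm.toLinearMap))) ∘ₗ fs.toLinearMap ∘ₗ h.toLinearMap) X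
    refine ext_ins (fun u w => ?_) X
    simp only [LinearMap.comp_apply, LinearEquiv.coe_coe, LinearMap.add_apply, LinearMap.id_apply,
      hfgx, hform, map_add, map_smul, hfsx, hσB, root_apply, ← hBv, hgv]
    rw [show ev (cv q (B v)) = evh q (B v) from rfl]
    simp only [evh_ins, hsim, map_smul, LinearMap.smul_apply, LinearMap.comp_apply,
      LinearEquiv.coe_coe, LinearEquiv.symm_apply_apply, hgu, D.hv, mul_zero, zero_smul, smul_zero,
      add_zero, map_zero, ins_smul, hgv, smul_smul]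
    rw [hc0]
    match_scalars <;> field_simp [D.ne, hl0] <;> ring
  obtain ⟨d, hd⟩ := hP v' _ D.hv'0 D.hv' hmem
  have hc00 : c0 ≠ 0 := mul_ne_zero D.ne (sub_ne_zero.2 fun h1 => hl (by rw [pow_succ', ← h1]))
  refine ⟨p' + (c0⁻¹ * d) • v', fun w => ?_⟩
  have h1 := LinearMap.congr_fun hd (k w)
  simp only [LinearMap.smul_apply, LinearMap.comp_apply, LinearEquiv.coe_coe,
    LinearEquiv.symm_apply_apply, LinearMap.id_apply] at h1
  rw [hform, hfv, one_smul, show B f = p' by
    rw [hBval, hfv, one_smul, sub_self, map_zero, zero_add, one_smul],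
    ins_add p' ((c0⁻¹ * d) • v'), ins_smul (c0⁻¹ * d) v',
    ← map_smul (ins v'), mul_smul, ← h1, inv_smul_smul₀ hc00]

omit D in
/-- An element mapping a line to a line is a tensor product. -/
theorem isT_of_line (hm3 : 3 ≤ m) (hex : ¬ (q = 2 ∧ m = 3))
    (hiso : ∀ X Y, hV q (h X) (h Y) = hV q X Y)
    (hv0 : v ≠ 0) (hv : herm q v v = 0) (hv'0 : v' ≠ 0) (hv' : herm q v' v' = 0)
    (hline : ∀ w, h (ins v w) ∈ line (κ → F) v') : IsT h := by
  obtain ⟨k, lam, D⟩ := exists_LD hF hG hP hiso hh hv0 hv hv'0 hv' hline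
  obtain ⟨f, hf⟩ := exists_partner hF hv0 hv
  obtain ⟨c, hc⟩ : ∃ c : Fin m → F, ∀ w, h (ins f w) = ins c (k w) := by
    rcases Nat.lt_or_ge q 3 with hq | hq
    · exact D.pure_partner_four hF hG hG' hP hh (by have := hF.one_lt; omega) hf
    · exact D.pure_partner_big hF hG hG' hP hh hm3 hq hf
  refine isT_of_forall k fun u μ => ?_
  obtain ⟨c', -, hc'⟩ := D.pure hF hG hG' hP hh (x := u - herm q u v • f) (by
    rw [herm_sub_left, herm_smul_left, (hf.symm hF).2.2, mul_one, sub_self])
  refine ⟨μ ⬝ᵥ c' + herm q u v * (μ ⬝ᵥ c), fun w => ?_⟩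
  have h1 : h (ins u w) = ins c' (k w) + herm q u v • ins c (k w) := by
    rw [← hc', ← hc, ← map_smul, ← ins_smul, ← map_add, ← ins_add, sub_add_cancel]
  rw [h1, map_add, map_smul, ev_ins, ev_ins, smul_smul, add_smul]

end Cfsg.Agent.MaxSub.TensorPowU
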