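import Cfsg.Agent.MaxSub.TensorPowU.Basic
import Cfsg.Agent.MaxSub.TensorPow.SelBase

/-!
An isometry carrying `G` into a group without non-scalar parameters and mapping one isotropic line
`v ⊗ W` onto another is a tensor product.
-/

set_option autoImplicit false
set_option linter.unusedSectionVars false
set_option maxHeartbeats 1000000

namespace Cfsg.Agent.MaxSub.TensorPowU

open Module Matrix Cfsg.Agent.Classical.U Cfsg.Agent.MaxSub.TensorPow
open Cfsg.Agent.MaxSub.TensorU (exists_partner exists_ne_pow herm_eq_zero_symm)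
open Cfsg.Agent.MaxSub.ExtField (Mem inv_apply_self self_inv_apply)

universe u

variable {F : Type u} [Field F] {m q : ℕ} {κ : Type} [Fintype κ] [DecidableEq κ]

/-- A map of the unipotent radical of the stabiliser of a line. -/
def el (q : ℕ) (v' : Fin m → F) (Γ : (κ → F) →ₗ[F] (Fin m → κ → F)) (Δ : (Fin m → κ → F) →ₗ[F] (κ → F)) (z : F) : (Fin m → κ → F) →ₗ[F] (Fin m → κ → F) :=
  Γ ∘ₗ evh q v' + ins v' ∘ₗ (z • evh q v' - Δ)

lemma el_apply (v' : Fin m → F) (Γ : (κ → F) →ₗ[F] (Fin m → κ → F)) (Δ : (Fin m → κ → F) →ₗ[F] (κ → F)) (z : F) (X : (Fin m → κ → F)) :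
    el q v' Γ Δ z X = Γ (evh q v' X) + ins v' (z • evh q v' X - Δ X) := rfl

variable (hF : SqField F q)
include hF

/-- A semilinear family of maps with scalar values is scalar. -/
lemma scalar_of_semilinear {A B : (κ → F) →ₗ[F] (κ → F)}
    (h : ∀ μ : F, ∃ c : F, μ • A + μ ^ q • B = c • LinearMap.id) :
    ∃ c : F, A = c • LinearMap.id := by
  obtain ⟨μ, hμ⟩ := exists_ne_pow hF
  obtain ⟨c, hc⟩ := h μ
  obtain ⟨d, hd⟩ := h 1
  rw [one_pow, one_smul, one_smul] at hd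
  refine ⟨(μ - μ ^ q)⁻¹ * (c - μ ^ q * d), ?_⟩
  rw [mul_smul, sub_smul, mul_smul, ← hc, ← hd, eq_inv_smul_iff₀ (sub_ne_zero.2 (Ne.symm hμ))]
  module

variable {G G' : Subgroup ((Fin m → κ → F) ≃ₗ[F] (Fin m → κ → F))} {h : (Fin m → κ → F) ≃ₗ[F] (Fin m → κ → F)} {v v' : Fin m → F}

omit hF in
/-- The data of an isometry mapping the line of `v` to the line of `v'`. -/
structure LD (q : ℕ) (h : (Fin m → κ → F) ≃ₗ[F] (Fin m → κ → F)) (v v' : Fin m → F) (k : (κ → F) ≃ₗ[F] (κ → F)) (lam : F) : Prop where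
  hv0 : v ≠ 0
  hv : herm q v v = 0
  hv'0 : v' ≠ 0
  hv' : herm q v' v' = 0
  hk : ∀ w, h (ins v w) = ins v' (k w)
  adj : ∀ X, evh q v (h.symm X) = lam • k.symm (evh q v' X)
  fixed : lam ^ q = lam
  ne : lam ≠ 0
  iso : ∀ X Y, hV q (h X) (h Y) = hV q X Y

lemma exists_dual (hv'0 : v' ≠ 0) (hv' : herm q v' v' = 0) :
    ∃ y : Fin m → F, herm q y y = 0 ∧ herm q y v' = 1 ∧ herm q v' y = 1 := by
  obtain ⟨f, -, hf, hvf⟩ := exists_partner hF hv'0 hv'
  exact ⟨f, hf, by rw [← hF.herm_symm, hvf, one_pow], hvf⟩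

/-- The data from the line. -/
theorem exists_LD [Nonempty κ] (hG : UGrp q G) (hP : NoPar q G')
    (hiso : ∀ X Y, hV q (h X) (h Y) = hV q X Y) (hh : ∀ g ∈ G, h * g * h⁻¹ ∈ G')
    (hv0 : v ≠ 0) (hv : herm q v v = 0) (hv'0 : v' ≠ 0) (hv' : herm q v' v' = 0)
    (hline : ∀ w, h (ins v w) ∈ line (κ → F) v') : ∃ k lam, LD q h v v' k lam := by
  classical
  obtain ⟨φ, hφ⟩ := exists_dot_one hv'0
  have hk0 : ∀ w, h (ins v w) = ins v' (ev φ (h (ins v w))) := fun w => by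
    obtain ⟨w', hw'⟩ := hline w
    rw [← hw', ev_ins, hφ, one_smul]
  have hinj : Function.Injective (ev φ ∘ₗ h.toLinearMap ∘ₗ ins (W := (κ → F)) v) := fun a b hab =>
    ins_injective hv0 (h.injective (by rw [hk0 a, hk0 b]; exact congrArg (ins v') hab))
  set k := LinearEquiv.ofInjectiveEndo _ hinj with hkdef
  have hk : ∀ w, h (ins v w) = ins v' (k w) := hk0
  have h1 : ∀ a X, hm q a (evh q v (h.symm X)) = hm q (k a) (evh q v' X) := fun a X => by
    rw [← hV_ins_left hF, ← hV_ins_left hF, ← hiso, hk, LinearEquiv.apply_symm_apply]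
  obtain ⟨y, -, hy, -⟩ := exists_dual hF hv'0 hv'
  set N : (κ → F) →ₗ[F] (κ → F) := evh q v ∘ₗ h.symm.toLinearMap ∘ₗ ins y
  have hN : ∀ X, evh q v (h.symm X) = N (evh q v' X) := fun X => hm_ext hF fun a => by
    rw [h1, show N (evh q v' X) = evh q v (h.symm (ins y (evh q v' X))) from rfl, h1, evh_ins, hy,
      one_smul]
  obtain ⟨c, hc0, -, hcM⟩ := mem_transv' hF hG hv
  obtain ⟨d, hd⟩ := hP v' (c • (k.toLinearMap ∘ₗ N)) hv'0 hv' ((mem_conj_of_conj hcM hh).congr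
    fun X => by
      simp only [LinearMap.comp_apply, LinearEquiv.coe_coe, root_apply, LinearMap.smul_apply,
        LinearMap.id_apply, map_smul, hk]
      rw [show ev (cv q v) (h.symm X) = N (evh q v' X) from hN X])
  have hNk : ∀ z, N z = (c⁻¹ * d) • k.symm z := fun z => by
    have := LinearMap.congr_fun hd z
    simp only [LinearMap.smul_apply, LinearMap.comp_apply, LinearEquiv.coe_coe,
      LinearMap.id_apply] at this
    rw [mul_smul, ← map_smul k.symm d, ← this, map_smul, LinearEquiv.symm_apply_apply,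
      inv_smul_smul₀ hc0]
  set lam := c⁻¹ * d
  have hadj : ∀ X, evh q v (h.symm X) = lam • k.symm (evh q v' X) := fun X => by rw [hN, hNk]
  have hkk : ∀ a b, hm q (k a) (k b) = lam ^ q * hm q a b := fun a b => by
    have := h1 a (ins y (k b))
    rw [hadj, evh_ins, hy, one_smul, LinearEquiv.symm_apply_apply, hm_smul_right] at this
    exact this.symm
  obtain ⟨i⟩ := (inferInstance : Nonempty κ)
  set e : (κ → F) := Pi.single i 1
  have he : hm q e e = 1 := by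
    rw [hm, Finset.sum_eq_single i (fun j _ hj => by simp [e, Pi.single_eq_of_ne hj]) (by simp)]
    simp [e]
  have hfix : lam ^ q = lam := by
    have h2 := hm_symm hF (k e) (k e)
    rw [hkk, he, mul_one, hF.pow_pow] at h2
    exact h2.symm
  refine ⟨k, lam, hv0, hv, hv'0, hv', hk, hadj, hfix, fun h0 => ?_, hiso⟩
  have := hkk e (k.symm e)
  rw [LinearEquiv.apply_symm_apply, h0, zero_pow hF.q_ne_zero, zero_mul] at this
  have h3 := hkk e e
  rw [h0, zero_pow hF.q_ne_zero, zero_mul] at h3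
  have h4 : k e = 0 := eq_zero_of_hm hF _ fun Y => by
    obtain ⟨Y', rfl⟩ := k.surjective Y
    rw [hkk, h0, zero_pow hF.q_ne_zero, zero_mul]
  have : e = 0 := k.injective (h4.trans (map_zero k).symm)
  rw [this, hm_zero_left] at he
  exact zero_ne_one he

variable {k : (κ → F) ≃ₗ[F] (κ → F)} {lam : F}

lemma LD.apply_fwd (D : LD q h v v' k lam) (Z : (Fin m → κ → F)) :
    evh q v' (h Z) = lam⁻¹ • k (evh q v Z) := by
  have := D.adj (h Z)
  rw [LinearEquiv.symm_apply_apply] at this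
  rw [this, map_smul, LinearEquiv.apply_symm_apply, inv_smul_smul₀ D.ne]

lemma LD.hm_adj (D : LD q h v v' k lam) (a b : (κ → F)) :
    hm q (k a) b = hm q a (lam • k.symm b) := by
  obtain ⟨y, -, hy, -⟩ := exists_dual hF D.hv'0 D.hv'
  have : hm q (k a) (evh q v' (ins y b)) = hm q a (evh q v (h.symm (ins y b))) := by
    rw [← hV_ins_left hF, ← hV_ins_left hF, ← D.iso (ins v a), D.hk, LinearEquiv.apply_symm_apply]
  rwa [D.adj, evh_ins, hy, one_smul] at this

omit hF in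
/-- The commutator of two elements of the radical. -/
lemma el_comm {Γ₁ Γ₂ : (κ → F) →ₗ[F] (Fin m → κ → F)} {Δ₁ Δ₂ : (Fin m → κ → F) →ₗ[F] (κ → F)} {z₁ z₂ : F}
    (hv' : ∀ w, evh q v' (ins v' w) = (0 : (κ → F)))
    (hΓ₁ : ∀ z, evh q v' (Γ₁ z) = 0) (hΓ₂ : ∀ z, evh q v' (Γ₂ z) = 0)
    (hΔ₁ : ∀ w, Δ₁ (ins v' w) = 0) (hΔ₂ : ∀ w, Δ₂ (ins v' w) = 0)
    (h₁ : Mem G' (el q v' Γ₁ Δ₁ z₁)) (h₂ : Mem G' (el q v' Γ₂ Δ₂ z₂)) :
    Mem G' (root v' (cv q v') (Δ₂ ∘ₗ Γ₁ - Δ₁ ∘ₗ Γ₂)) := by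
  obtain ⟨g₁, hg₁, e₁⟩ := h₁
  obtain ⟨g₂, hg₂, e₂⟩ := h₂
  refine ⟨g₁ * g₂ * (g₂ * g₁)⁻¹, G'.mul_mem (G'.mul_mem hg₁ hg₂) (G'.inv_mem (G'.mul_mem hg₂ hg₁)),
    fun Z => ?_⟩
  obtain ⟨X, rfl⟩ := (g₂ * g₁).surjective Z
  rw [LinearEquiv.mul_apply (g₁ * g₂), inv_apply_self]
  simp only [LinearEquiv.mul_apply, e₁, e₂, el_apply, root_apply, LinearMap.sub_apply,
    LinearMap.comp_apply, map_add, map_sub, map_smul, hΓ₁, hΓ₂, hΔ₁, hΔ₂, hv', map_zero, smul_zero,
    add_zero, sub_zero, zero_add]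
  rw [show ev (cv q v') X = evh q v' X from rfl]
  abel

omit hF in
/-- The quotient of two elements of the radical. -/
lemma el_sub {Γ₁ Γ₂ : (κ → F) →ₗ[F] (Fin m → κ → F)} {Δ₁ Δ₂ : (Fin m → κ → F) →ₗ[F] (κ → F)} {z₁ z₂ : F} {Θ Ψ : (κ → F) →ₗ[F] (κ → F)}
    (hv' : ∀ w, evh q v' (ins v' w) = (0 : (κ → F))) (hΓ₂ : ∀ z, evh q v' (Γ₂ z) = 0)
    (hΓ : ∀ z, Γ₁ z = Γ₂ z + ins v' (Θ z)) (hΔ : ∀ X, Δ₁ X = Δ₂ X + Ψ (evh q v' X))
    (h₁ : Mem G' (el q v' Γ₁ Δ₁ z₁)) (h₂ : Mem G' (el q v' Γ₂ Δ₂ z₂)) :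
    Mem G' (root v' (cv q v') (Θ + (z₁ - z₂) • LinearMap.id - Ψ)) := by
  obtain ⟨g₁, hg₁, e₁⟩ := h₁
  obtain ⟨g₂, hg₂, e₂⟩ := h₂
  refine ⟨g₁ * g₂⁻¹, G'.mul_mem hg₁ (G'.inv_mem hg₂), fun Z => ?_⟩
  obtain ⟨X, rfl⟩ := g₂.surjective Z
  rw [LinearEquiv.mul_apply, inv_apply_self]
  simp only [e₁, e₂, el_apply, root_apply, LinearMap.sub_apply, LinearMap.add_apply,
    LinearMap.smul_apply, LinearMap.id_apply, hΓ, hΔ, map_add, map_sub, map_smul, hΓ₂, hv',
    map_zero, smul_zero, add_zero, sub_zero]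
  rw [show ev (cv q v') X = evh q v' X from rfl, sub_smul]
  abel

omit hF in
lemma evh_smul (μ : F) (x : Fin m → F) (X : (Fin m → κ → F)) : evh q (μ • x) X = μ ^ q • evh q x X := by
  simp [cv, mul_pow, smul_smul, Finset.smul_sum]

lemma exists_uniCond {e x : Fin m → F} (he : herm q e e = 0) (hx : herm q x e = 0) :
    ∃ a, UniCond q e x a := by
  obtain ⟨a, ha⟩ := hF.exists_trace (c := -herm q x x) (by rw [hF.neg_pow, hF.herm_symm])
  exact ⟨a, he, hx, by rw [ha, neg_add_cancel]⟩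

/-- Vectors are determined modulo `v'` by the contractions with the orthogonal space. -/
lemma decomp (hv'0 : v' ≠ 0) (hv' : herm q v' v' = 0) {k : (κ → F) ≃ₗ[F] (κ → F)} (P : (κ → F) →ₗ[F] (Fin m → κ → F))
    (hP : ∀ s, herm q s v' = 0 → ∃ c : F, ∀ w, evh q s (P w) = c • k w) :
    ∃ (c : Fin m → F) (θ : (κ → F) →ₗ[F] (κ → F)), ∀ w, P w = ins c (k w) + ins v' (θ w) := by
  obtain ⟨y, -, hy, -⟩ := exists_dual hF hv'0 hv'
  choose c hc using fun i : Fin m => hP (Pi.single i 1 - herm q (Pi.single i 1) v' • y)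
    (by rw [herm_sub_left, herm_smul_left, hy, mul_one, sub_self])
  refine ⟨c, evh q y ∘ₗ P, fun w => funext fun i => ?_⟩
  have e1 := hc i w
  have h0 : (cv q (Pi.single i 1 - herm q (Pi.single i 1) v' • y) : Fin m → F) =
      Pi.single i 1 - v' i • cv q y := by
    funext j
    simp only [cv, Pi.sub_apply, Pi.smul_apply, smul_eq_mul, hF.sub_pow, mul_pow, herm_one_single,
      hF.pow_pow]
    rcases eq_or_ne j i with rfl | hj
    · simp
    · simp [Pi.single_eq_of_ne hj, zero_pow hF.q_ne_zero]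
  have h2 : ev (Pi.single i 1 - v' i • cv q y) (P w) = P w i - v' i • evh q y (P w) := by
    simp only [evh, ev_apply, Pi.sub_apply, Pi.smul_apply, sub_smul, Finset.sum_sub_distrib,
      smul_eq_mul, mul_smul, Finset.smul_sum]
    congr 1
    simp [Pi.single_apply]
  rw [evh, h0, h2, sub_eq_iff_eq_add] at e1
  simp [e1, -ev_apply]

variable (D : LD q h v v' k lam) (hG : UGrp q G) (hG' : UGrp q G') (hP : NoPar q G')
  (hh : ∀ g ∈ G, h * g * h⁻¹ ∈ G')
include D hG hG' hP hh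

/-- The conjugate Siegel element. -/
lemma LD.mem_el {x : Fin m → F} (hx : herm q x v = 0) (μ : F) : ∃ z, Mem G'
    (el q v' (μ • (lam • (h.toLinearMap ∘ₗ ins x ∘ₗ k.symm.toLinearMap)))
      (μ ^ q • (k.toLinearMap ∘ₗ evh q x ∘ₗ h.symm.toLinearMap)) z) := by
  obtain ⟨a, ha⟩ := exists_uniCond hF (x := μ • x) D.hv (by rw [herm_smul_left, hx, mul_zero])
  refine ⟨a * lam, (mem_conj_of_conj (mem_siegel hF hG ha) hh).congr fun X => ?_⟩
  simp only [LinearMap.comp_apply, LinearMap.add_apply, LinearMap.sub_apply, LinearMap.smul_apply,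
    LinearEquiv.coe_coe, el_apply, map_add, D.hk, evh_smul, D.adj, ins_smul, map_smul, map_sub,
    LinearEquiv.apply_symm_apply, smul_smul]
  module

lemma LD.ev_fwd {x : Fin m → F} (hx : herm q x v = 0) (w : (κ → F)) :
    evh q v' (h (ins x w)) = 0 := by
  rw [D.apply_fwd hF, evh_ins, hx, zero_smul, map_zero, smul_zero]

/-- The contractions of images of vectors orthogonal to `v`. -/
lemma LD.scalar_pair {x s : Fin m → F} (hx : herm q x v = 0) (hs : herm q s v' = 0) :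
    ∃ c : F, ∀ w, evh q s (h (ins x w)) = c • k w := by
  obtain ⟨a, ha⟩ := exists_uniCond hF (x := s) D.hv' hs
  set Γ := h.toLinearMap ∘ₗ ins x ∘ₗ k.symm.toLinearMap
  set Δ := k.toLinearMap ∘ₗ evh q x ∘ₗ h.symm.toLinearMap
  have hv' : ∀ w, evh q v' (ins v' w) = (0 : (κ → F)) := fun w => by rw [evh_ins, D.hv', zero_smul]
  have hsk : ∀ μ : F, ∃ c : F, μ • (lam • (evh q s ∘ₗ Γ)) + μ ^ q • (-(Δ ∘ₗ ins s)) =
      c • LinearMap.id := by
    intro μ
    obtain ⟨z, hz⟩ := D.mem_el hF hG hG' hP hh hx μ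
    obtain ⟨c, hc⟩ := hP v' _ D.hv'0 D.hv' (el_comm (Γ₂ := ins s) (Δ₂ := evh q s) (z₂ := a) hv'
      (fun w => by
        simp only [LinearMap.smul_apply, map_smul, LinearMap.comp_apply, LinearEquiv.coe_coe]
        rw [D.ev_fwd hF hG hG' hP hh hx, smul_zero, smul_zero])
      (fun w => by rw [evh_ins, hs, zero_smul])
      (fun w => by
        simp only [LinearMap.smul_apply, LinearMap.comp_apply, LinearEquiv.coe_coe]
        rw [show h.symm (ins v' w) = ins v (k.symm w) from h.injective (by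
          rw [LinearEquiv.apply_symm_apply, D.hk, LinearEquiv.apply_symm_apply]), evh_ins,
          ← hF.herm_symm, hx, zero_pow hF.q_ne_zero, zero_smul, map_zero, smul_zero])
      (fun w => by rw [evh_ins, ← hF.herm_symm, hs, zero_pow hF.q_ne_zero, zero_smul])
      hz ((mem_siegel hF hG' ha).congr fun X => rfl))
    refine ⟨c, ?_⟩
    rw [← hc]
    refine LinearMap.ext fun w => ?_
    simp [Γ, Δ, smul_smul, sub_eq_add_neg, -ev_apply]
  obtain ⟨c, hc⟩ := scalar_of_semilinear hF hsk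
  refine ⟨lam⁻¹ * c, fun w => ?_⟩
  have h1 := LinearMap.congr_fun hc (k w)
  simp only [LinearMap.smul_apply, LinearMap.comp_apply, LinearEquiv.coe_coe,
    LinearMap.id_apply, LinearEquiv.symm_apply_apply, Γ] at h1
  rw [mul_smul, ← h1, inv_smul_smul₀ D.ne]

/-- Vectors orthogonal to `v` are mapped to pure tensors. -/
theorem LD.pure {x : Fin m → F} (hx : herm q x v = 0) :
    ∃ c : Fin m → F, herm q c v' = 0 ∧ ∀ w, h (ins x w) = ins c (k w) := by
  obtain ⟨c, θ, hcθ⟩ := decomp hF D.hv'0 D.hv' (h.toLinearMap ∘ₗ ins x)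
    fun s hs => D.scalar_pair hF hG hG' hP hh hx hs
  replace hcθ : ∀ w, h (ins x w) = ins c (k w) + ins v' (θ w) := hcθ
  have hv' : ∀ w, evh q v' (ins v' w) = (0 : (κ → F)) := fun w => by rw [evh_ins, D.hv', zero_smul]
  rcases isEmpty_or_nonempty κ with hκ | hκ
  · exact ⟨0, herm_zero_left _, fun w => by
      funext i; exact funext fun j => hκ.elim j⟩
  obtain ⟨w₁, hw₁⟩ := exists_ne (0 : (κ → F))
  have hc : herm q c v' = 0 := by
    have := D.ev_fwd hF hG hG' hP hh hx w₁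
    rw [hcθ, map_add, hv', add_zero, evh_ins] at this
    exact (smul_eq_zero.1 this).resolve_right fun h0 =>
      hw₁ (k.injective (h0.trans (map_zero k).symm))
  obtain ⟨y, -, hy, -⟩ := exists_dual hF D.hv'0 D.hv'
  set Γ := h.toLinearMap ∘ₗ ins x ∘ₗ k.symm.toLinearMap
  set Δ := k.toLinearMap ∘ₗ evh q x ∘ₗ h.symm.toLinearMap with hΔdef
  have hΔ : ∀ X, evh q v' X = 0 → Δ X = evh q (lam • c) X := by
    intro X hX
    rw [evh_smul, D.fixed, hΔdef, LinearMap.comp_apply, LinearMap.comp_apply, LinearEquiv.coe_coe,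
      LinearEquiv.coe_coe,
      show evh q x (h.symm X) = lam • k.symm (evh q c X) from hm_ext hF fun a => by
        rw [← D.hm_adj hF, ← hV_ins_left hF, ← D.iso, hcθ, LinearEquiv.apply_symm_apply,
          hV_add_left, hV_ins_left hF, hV_ins_left hF, hX, hm_zero_right hF, add_zero],
      map_smul, LinearEquiv.apply_symm_apply]
  have hsk : ∀ μ : F, ∃ d : F, μ • (lam • (θ ∘ₗ k.symm.toLinearMap)) +
      μ ^ q • (-((Δ - evh q (lam • c)) ∘ₗ ins y)) = d • LinearMap.id := by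
    intro μ
    obtain ⟨z, hz⟩ := D.mem_el hF hG hG' hP hh hx μ
    obtain ⟨a, ha⟩ := exists_uniCond hF (x := μ • (lam • c)) D.hv'
      (by rw [herm_smul_left, herm_smul_left, hc, mul_zero, mul_zero])
    have hS : Mem G' (el q v' (ins (μ • lam • c)) (evh q (μ • lam • c)) a) :=
      (mem_siegel hF hG' ha).congr fun X => rfl
    obtain ⟨d, hd⟩ := hP v' _ D.hv'0 D.hv' (el_sub
      (Θ := μ • (lam • (θ ∘ₗ k.symm.toLinearMap)))
      (Ψ := μ ^ q • ((Δ - evh q (lam • c)) ∘ₗ ins y)) hv'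
      (fun w => by rw [evh_ins, herm_smul_left, herm_smul_left, hc, mul_zero, mul_zero, zero_smul])
      (fun w => by
        simp [Γ, hcθ, ins_smul, smul_smul, smul_add])
      (fun X => by
        have h1 := hΔ (X - ins y (evh q v' X)) (by rw [map_sub, evh_ins, hy, one_smul, sub_self])
        rw [map_sub, map_sub] at h1
        show μ ^ q • Δ X = evh q (μ • lam • c) X +
          μ ^ q • (Δ (ins y (evh q v' X)) - evh q (lam • c) (ins y (evh q v' X)))
        rw [evh_smul μ, ← smul_add]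
        exact congrArg (μ ^ q • ·) (by linear_combination (norm := abel) h1))
      hz hS)
    refine ⟨d - (z - a), ?_⟩
    linear_combination (norm := module) hd
  obtain ⟨d, hd⟩ := scalar_of_semilinear hF hsk
  refine ⟨c + (lam⁻¹ * d) • v', by rw [herm_add_left, herm_smul_left, hc, D.hv', mul_zero,
    add_zero], fun w => ?_⟩
  have h1 := LinearMap.congr_fun hd (k w)
  simp only [LinearMap.smul_apply, LinearMap.comp_apply, LinearEquiv.coe_coe, LinearMap.id_apply,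
    LinearEquiv.symm_apply_apply] at h1
  rw [hcθ, ins_add, ins_smul, ← map_smul (ins v'), mul_smul, ← h1, inv_smul_smul₀ D.ne]

end Cfsg.Agent.MaxSub.TensorPowU
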